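import Cfsg.Agent.Lib.J2.PcThm
import Cfsg.Agent.Lib.J2.MinE

/-!
# `twoJ2` is a finite perfect central extension of `J₂` with centre `{±1}`
-/

set_option autoImplicit false
set_option maxRecDepth 100000
set_option maxHeartbeats 1000000

open Quaternion

namespace Cfsg.Agent.Lib.J2

open Cfsg Cfsg.Spor QZ Subgroup Cfsg.Agent.Lib.PermComp.Core TabData MinData
open scoped commutatorElement

/-! ### Explicit lattice vectors -/

/-- The facts about a lattice vector. -/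
def latOK (x y z : QZ) : Bool :=
  isI x && isI y && isI z && decide (x.nP + y.nP + z.nP = 64) && decide (x.nQ + y.nQ + z.nQ = 0) &&
    idChk Hq (QZ.sub x y) && idChk Hq (QZ.sub y z) && idChk (QZ.conj Hq) (QZ.add (QZ.add x y) z)

theorem latOK_mem {x y z : QZ} (h : latOK x y z = true) : vec3 x y z ∈ icoLeech := by
  simp only [latOK, Bool.and_eq_true, decide_eq_true_eq] at h
  obtain ⟨⟨⟨⟨⟨⟨⟨h1, h2⟩, h3⟩, _⟩, _⟩, h6⟩, h7⟩, h8⟩ := h
  refine ⟨?_, ?_, ?_, ?_⟩
  · intro t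
    fin_cases t
    · exact toH_mem h1
    · exact toH_mem h2
    · exact toH_mem h3
  · have := idChk_spec h6
    rwa [toH_Hq, toH_sub] at this
  · have := idChk_spec h7
    rwa [toH_Hq, toH_sub] at this
  · have := idChk_spec h8
    rwa [toH_conj_Hq, toH_add, toH_add] at this

theorem latOK_norm {x y z : QZ} (h : latOK x y z = true) : qip (vec3 x y z) (vec3 x y z) = 4 := by
  simp only [latOK, Bool.and_eq_true, decide_eq_true_eq] at h
  obtain ⟨⟨⟨⟨⟨⟨⟨_, _⟩, _⟩, h4⟩, h5⟩, _⟩, _⟩, _⟩ := h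
  exact qip_of_sums h4 h5

/-- The vector as an element of the lattice. -/
noncomputable def mkL (x y z : QZ) (h : latOK x y z = true) : LL := ⟨vec3 x y z, latOK_mem h⟩

/-- The reflection. -/
noncomputable def mkR (x y z : QZ) (h : latOK x y z = true) : Equiv.Perm LL :=
  fr (mkL x y z h) (latOK_norm h)

theorem mkR_mem (x y z : QZ) (h : latOK x y z = true) : mkR x y z h ∈ twoJ2 :=
  Subgroup.subset_closure (isIcoReflection_fr _ _)

/-- The quaternion `j`. -/
def QJ : QZ := ⟨0, 0, 0, 0, 4, 0, 0, 0⟩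
/-- The element `2`. -/
def QT : QZ := ⟨8, 0, 0, 0, 0, 0, 0, 0⟩
/-- `h i`. -/
def HI : QZ := QZ.mul Hq QI
/-- `h j`. -/
def HJ : QZ := QZ.mul Hq QJ

theorem ok_A : latOK Hq (QZ.neg HI) QZ.zero = true := by decide +kernel
theorem ok_A1 : latOK Hq (QZ.neg Hq) QZ.zero = true := by decide +kernel
theorem ok_B : latOK QZ.zero Hq (QZ.neg HJ) = true := by decide +kernel
theorem ok_B1 : latOK QZ.zero Hq (QZ.neg Hq) = true := by decide +kernel
theorem ok_E0 : latOK QT QZ.zero QZ.zero = true := by decide +kernel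
theorem ok_E1 : latOK QZ.zero QT QZ.zero = true := by decide +kernel
theorem ok_E2 : latOK QZ.zero QZ.zero QT = true := by decide +kernel

/-- `i` as a quaternion. -/
noncomputable abbrev qi : ℍ[ℝ] := toH QI
/-- `j` as a quaternion. -/
noncomputable abbrev qj : ℍ[ℝ] := toH QJ

theorem toH_QT : toH QT = 2 := by
  have h : QT = QZ.add QZ.one QZ.one := by decide +kernel
  rw [h, toH_add, toH_one, one_add_one_eq_two]

theorem toH_HI : toH HI = icoH * qi := by
  rw [← toH_Hq]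
  exact (toH_mul (x := Hq) (y := QI) (by decide +kernel)).symm

theorem toH_HJ : toH HJ = icoH * qj := by
  rw [← toH_Hq]
  exact (toH_mul (x := Hq) (y := QJ) (by decide +kernel)).symm

theorem qi_unit : star qi * qi = 1 := by
  rw [qi, ← toH_conj, toH_mul (x := QZ.conj QI) (y := QI) (by decide +kernel),
    (by decide +kernel : QZ.mul (QZ.conj QI) QI = QZ.one), toH_one]

theorem qj_unit : star qj * qj = 1 := by
  rw [qj, ← toH_conj, toH_mul (x := QZ.conj QJ) (y := QJ) (by decide +kernel),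
    (by decide +kernel : QZ.mul (QZ.conj QJ) QJ = QZ.one), toH_one]

theorem qj_qi : star qj * qi = - (qi * star qj) := by
  rw [qi, qj, ← toH_conj, toH_mul (x := QZ.conj QJ) (y := QI) (by decide +kernel),
    toH_mul (x := QI) (y := QZ.conj QJ) (by decide +kernel), ← toH_neg]
  congr 1

/-! ### Coordinates of reflections -/

theorem half_two (a : ℍ[ℝ]) : (1 / 2 : ℝ) • (a * 2) = a := by
  rw [mul_two, ← two_smul ℝ a, smul_smul]
  norm_num

theorem half_mul {h w a b : ℍ[ℝ]} (hh : star h * h = 2) :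
    ((1 / 2 : ℝ) • (a * star h - b * star w * star h)) * h = a - b * star w := by
  rw [smul_mul_assoc, sub_mul, mul_assoc a, hh, mul_assoc (b * star w), hh, ← sub_mul, half_two]

theorem qrefl_a {w h : ℍ[ℝ]} (hh : star h * h = 2) (hw : star w * w = 1) (r x : V3)
    (r0 : r 0 = h) (r1 : r 1 = -(h * w)) (r2 : r 2 = 0) :
    qrefl r x = ![x 1 * star w, x 0 * w, x 2] := by
  have q : qip x r = x 0 * star h - x 1 * star w * star h := by
    rw [qip_eq, r0, r1, r2]
    simp only [star_neg, star_mul, star_zero, mul_zero, add_zero]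
    noncomm_ring
  have c0 := half_mul (a := x 0) (b := x 1) (w := w) hh
  rw [← q] at c0
  funext t
  fin_cases t
  · show x 0 - ((1 / 2 : ℝ) • qip x r) * r 0 = x 1 * star w
    rw [r0, c0]
    noncomm_ring
  · show x 1 - ((1 / 2 : ℝ) • qip x r) * r 1 = x 0 * w
    rw [r1, mul_neg, ← mul_assoc, c0, sub_neg_eq_add, sub_mul, mul_assoc (x 1), hw]
    noncomm_ring
  · show x 2 - ((1 / 2 : ℝ) • qip x r) * r 2 = x 2
    rw [r2]
    simp

theorem qrefl_b {w h : ℍ[ℝ]} (hh : star h * h = 2) (hw : star w * w = 1) (r x : V3)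
    (r0 : r 0 = 0) (r1 : r 1 = h) (r2 : r 2 = -(h * w)) :
    qrefl r x = ![x 0, x 2 * star w, x 1 * w] := by
  have q : qip x r = x 1 * star h - x 2 * star w * star h := by
    rw [qip_eq, r0, r1, r2]
    simp only [star_neg, star_mul, star_zero, mul_zero, zero_add]
    noncomm_ring
  have c0 := half_mul (a := x 1) (b := x 2) (w := w) hh
  rw [← q] at c0
  funext t
  fin_cases t
  · show x 0 - ((1 / 2 : ℝ) • qip x r) * r 0 = x 0
    rw [r0]
    simp
  · show x 1 - ((1 / 2 : ℝ) • qip x r) * r 1 = x 2 * star w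
    rw [r1, c0]
    noncomm_ring
  · show x 2 - ((1 / 2 : ℝ) • qip x r) * r 2 = x 1 * w
    rw [r2, mul_neg, ← mul_assoc, c0, sub_neg_eq_add, sub_mul, mul_assoc (x 2), hw]
    noncomm_ring

theorem star_two : star (2 : ℍ[ℝ]) = 2 := by simp

theorem half_c (a : ℍ[ℝ]) : ((1 / 2 : ℝ) • (a * 2)) * 2 = a * 2 := by
  rw [half_two]

noncomputable section

/-- `(x, y, z) ↦ (y ī, x i, z)`. -/
def rA : Equiv.Perm LL := mkR _ _ _ ok_A
/-- `(x, y, z) ↦ (y, x, z)`. -/
def rA1 : Equiv.Perm LL := mkR _ _ _ ok_A1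
/-- `(x, y, z) ↦ (x, z j̄, y j)`. -/
def rB : Equiv.Perm LL := mkR _ _ _ ok_B
/-- `(x, y, z) ↦ (x, z, y)`. -/
def rB1 : Equiv.Perm LL := mkR _ _ _ ok_B1
/-- `(x, y, z) ↦ (-x, y, z)`. -/
def rE0 : Equiv.Perm LL := mkR _ _ _ ok_E0
/-- `(x, y, z) ↦ (x, -y, z)`. -/
def rE1 : Equiv.Perm LL := mkR _ _ _ ok_E1
/-- `(x, y, z) ↦ (x, y, -z)`. -/
def rE2 : Equiv.Perm LL := mkR _ _ _ ok_E2

end

theorem rA_apply (x : LL) : ((rA x : LL) : V3) = ![(x : V3) 1 * star qi, (x : V3) 0 * qi, (x : V3) 2] := by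
  refine qrefl_a star_mul_H qi_unit _ _ ?_ ?_ ?_
  · exact toH_Hq
  · show toH (QZ.neg HI) = _
    rw [toH_neg, toH_HI]
  · exact toH_zero

theorem rA1_apply (x : LL) : ((rA1 x : LL) : V3) = ![(x : V3) 1, (x : V3) 0, (x : V3) 2] := by
  have h := qrefl_a (w := 1) (r := vec3 Hq (QZ.neg Hq) QZ.zero) (x := (x : V3)) star_mul_H (by simp) toH_Hq
    (by show toH (QZ.neg Hq) = _; rw [toH_neg, toH_Hq, mul_one]) toH_zero
  show qrefl (vec3 Hq (QZ.neg Hq) QZ.zero) (x : V3) = _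
  rw [h]
  simp

theorem rB_apply (x : LL) : ((rB x : LL) : V3) = ![(x : V3) 0, (x : V3) 2 * star qj, (x : V3) 1 * qj] := by
  refine qrefl_b star_mul_H qj_unit _ _ ?_ ?_ ?_
  · exact toH_zero
  · exact toH_Hq
  · show toH (QZ.neg HJ) = _
    rw [toH_neg, toH_HJ]

theorem rB1_apply (x : LL) : ((rB1 x : LL) : V3) = ![(x : V3) 0, (x : V3) 2, (x : V3) 1] := by
  have h := qrefl_b (w := 1) (r := vec3 QZ.zero Hq (QZ.neg Hq)) (x := (x : V3)) star_mul_H (by simp) toH_zero toH_Hq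
    (by show toH (QZ.neg Hq) = _; rw [toH_neg, toH_Hq, mul_one])
  show qrefl (vec3 QZ.zero Hq (QZ.neg Hq)) (x : V3) = _
  rw [h]
  simp

theorem qip_e0 (x : V3) : qip x (vec3 QT QZ.zero QZ.zero) = x 0 * 2 := by
  rw [qip_eq]
  simp [toH_QT, toH_zero]

theorem qip_e1 (x : V3) : qip x (vec3 QZ.zero QT QZ.zero) = x 1 * 2 := by
  rw [qip_eq]
  simp [toH_QT, toH_zero]

theorem qip_e2 (x : V3) : qip x (vec3 QZ.zero QZ.zero QT) = x 2 * 2 := by
  rw [qip_eq]
  simp [toH_QT, toH_zero]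

theorem rE0_apply (x : LL) : ((rE0 x : LL) : V3) = ![-(x : V3) 0, (x : V3) 1, (x : V3) 2] := by
  show qrefl (vec3 QT QZ.zero QZ.zero) (x : V3) = _
  funext t
  fin_cases t
  · show (x : V3) 0 - ((1 / 2 : ℝ) • qip (x : V3) (vec3 QT QZ.zero QZ.zero)) * toH QT = - (x : V3) 0
    rw [qip_e0, half_two, toH_QT, mul_two]
    noncomm_ring
  · show (x : V3) 1 - ((1 / 2 : ℝ) • qip (x : V3) (vec3 QT QZ.zero QZ.zero)) * toH QZ.zero = (x : V3) 1
    rw [toH_zero]; simp
  · show (x : V3) 2 - ((1 / 2 : ℝ) • qip (x : V3) (vec3 QT QZ.zero QZ.zero)) * toH QZ.zero = (x : V3) 2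
    rw [toH_zero]; simp

theorem rE1_apply (x : LL) : ((rE1 x : LL) : V3) = ![(x : V3) 0, -(x : V3) 1, (x : V3) 2] := by
  show qrefl (vec3 QZ.zero QT QZ.zero) (x : V3) = _
  funext t
  fin_cases t
  · show (x : V3) 0 - ((1 / 2 : ℝ) • qip (x : V3) (vec3 QZ.zero QT QZ.zero)) * toH QZ.zero = (x : V3) 0
    rw [toH_zero]; simp
  · show (x : V3) 1 - ((1 / 2 : ℝ) • qip (x : V3) (vec3 QZ.zero QT QZ.zero)) * toH QT = - (x : V3) 1
    rw [qip_e1, half_two, toH_QT, mul_two]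
    noncomm_ring
  · show (x : V3) 2 - ((1 / 2 : ℝ) • qip (x : V3) (vec3 QZ.zero QT QZ.zero)) * toH QZ.zero = (x : V3) 2
    rw [toH_zero]; simp

theorem rE2_apply (x : LL) : ((rE2 x : LL) : V3) = ![(x : V3) 0, (x : V3) 1, -(x : V3) 2] := by
  show qrefl (vec3 QZ.zero QZ.zero QT) (x : V3) = _
  funext t
  fin_cases t
  · show (x : V3) 0 - ((1 / 2 : ℝ) • qip (x : V3) (vec3 QZ.zero QZ.zero QT)) * toH QZ.zero = (x : V3) 0
    rw [toH_zero]; simp
  · show (x : V3) 1 - ((1 / 2 : ℝ) • qip (x : V3) (vec3 QZ.zero QZ.zero QT)) * toH QZ.zero = (x : V3) 1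
    rw [toH_zero]; simp
  · show (x : V3) 2 - ((1 / 2 : ℝ) • qip (x : V3) (vec3 QZ.zero QZ.zero QT)) * toH QT = - (x : V3) 2
    rw [qip_e2, half_two, toH_QT, mul_two]
    noncomm_ring

/-! ### The relation -/

noncomputable section

/-- `(x, y, z) ↦ (x ī, y i, z)`. -/
def tT : Equiv.Perm LL := rA * rA1
/-- `(x, y, z) ↦ (x, y j̄, z j)`. -/
def tU : Equiv.Perm LL := rB * rB1

end

theorem tT_apply (x : LL) : ((tT x : LL) : V3) = ![(x : V3) 0 * star qi, (x : V3) 1 * qi, (x : V3) 2] := by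
  show ((rA (rA1 x) : LL) : V3) = _
  rw [rA_apply, rA1_apply]
  rfl

theorem tU_apply (x : LL) : ((tU x : LL) : V3) = ![(x : V3) 0, (x : V3) 1 * star qj, (x : V3) 2 * qj] := by
  show ((rB (rB1 x) : LL) : V3) = _
  rw [rB_apply, rB1_apply]
  rfl

theorem tT_tU : tT * tU = rE1 * tU * tT := by
  ext1 x
  apply Subtype.ext
  simp only [Equiv.Perm.mul_apply]
  rw [tT_apply, rE1_apply, tU_apply, tU_apply, tT_apply]
  funext t
  fin_cases t
  · rfl
  · show (x : V3) 1 * star qj * qi = - ((x : V3) 1 * qi * star qj)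
    rw [mul_assoc, qj_qi, mul_neg, mul_assoc]
  · rfl

theorem tT_mem : tT ∈ twoJ2 := mul_mem (mkR_mem _ _ _ _) (mkR_mem _ _ _ _)
theorem tU_mem : tU ∈ twoJ2 := mul_mem (mkR_mem _ _ _ _) (mkR_mem _ _ _ _)

/-! ### The group is perfect -/

theorem rE1_mem_comm : (⟨rE1, mkR_mem _ _ _ _⟩ : twoJ2) ∈ commutator twoJ2 := by
  have h1 : (⟨rE1, mkR_mem _ _ _ _⟩ : twoJ2) =
      ⁅(⟨tT, tT_mem⟩ : twoJ2), (⟨tU, tU_mem⟩ : twoJ2)⁆ := by
    apply Subtype.ext
    show rE1 = tT * tU * tT⁻¹ * tU⁻¹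
    rw [tT_tU]
    group
  rw [h1, _root_.commutator_def]
  exact Subgroup.commutator_mem_commutator (mem_top _) (mem_top _)

/-- All reflections are conjugate to the one at the root. -/
theorem exists_conj_root (x : Fin 315) : ∃ g : twoJ2, phi g ⟨86, by norm_num⟩ = x := by
  have hT : ∀ c ∈ T315, ∃ g : twoJ2, Rep 9 511 (Equiv.refl (Fin 315)) c (phi g) := by
    intro c hc
    obtain ⟨a, ha⟩ := piR_gens c hc
    exact ⟨⟨ref a, ref_mem a⟩, ha⟩
  have key := span_good (P := fun x => ∀ hx : x < 315, ∃ g : twoJ2, phi g ⟨86, by norm_num⟩ = ⟨x, hx⟩) (by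
    intro c hc p hp hP hx
    obtain ⟨g, hg⟩ := hT c hc
    obtain ⟨k, hk⟩ := hP hp
    refine ⟨g * k, ?_⟩
    rw [map_mul, Equiv.Perm.mul_apply, hk]
    have h1 := hg ⟨p, hp⟩
    simp only [Equiv.refl_apply] at h1
    exact Fin.ext h1.symm) spanT _ span_check (by
    intro y hy hlt
    have h := (bit_shift_one _ _).1 hy
    subst h
    exact ⟨1, by simp [spanRoot]⟩)
  exact key x ((allL_eq_true _ _).1 span_all x (List.mem_range.2 x.2)) x.2

theorem ref_mem_comm (i : Fin 315) : (⟨ref i, ref_mem i⟩ : twoJ2) ∈ commutator twoJ2 := by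
  obtain ⟨j, hj⟩ := exists_ref (isIcoReflection_fr (mkL _ _ _ ok_E1) (latOK_norm ok_E1))
  -- the reflection `rE1` is `ref j`
  have h1 : (⟨ref j, ref_mem j⟩ : twoJ2) ∈ commutator twoJ2 := by
    have : (⟨ref j, ref_mem j⟩ : twoJ2) = ⟨rE1, mkR_mem _ _ _ _⟩ := Subtype.ext hj.symm
    rw [this]
    exact rE1_mem_comm
  -- conjugates
  have hconj : ∀ (g : twoJ2) (a : Fin 315), g * ⟨ref a, ref_mem a⟩ * g⁻¹ = ⟨ref (phi g a), ref_mem _⟩ := by
    intro g a
    apply Subtype.ext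
    exact phi_spec g a
  obtain ⟨g1, hg1⟩ := exists_conj_root j
  obtain ⟨g2, hg2⟩ := exists_conj_root i
  have h2 : (⟨ref ⟨86, by norm_num⟩, ref_mem _⟩ : twoJ2) ∈ commutator twoJ2 := by
    have h3 := hconj g1 ⟨86, by norm_num⟩
    rw [hg1] at h3
    rw [← h3] at h1
    have h4 := (commutator_normal (⊤ : Subgroup twoJ2) ⊤).conj_mem _ h1 g1⁻¹
    have h5 : g1⁻¹ * (g1 * ⟨ref ⟨86, by norm_num⟩, ref_mem _⟩ * g1⁻¹) * g1⁻¹⁻¹ = ⟨ref ⟨86, by norm_num⟩, ref_mem _⟩ := by
      group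
    rw [h5] at h4
    exact h4
  have h3 := hconj g2 ⟨86, by norm_num⟩
  rw [hg2] at h3
  rw [← h3]
  exact (commutator_normal (⊤ : Subgroup twoJ2) ⊤).conj_mem _ h2 g2

/-- The group is perfect. -/
theorem commutator_twoJ2 : commutator twoJ2 = ⊤ := by
  rw [eq_top_iff]
  rintro ⟨g, hg⟩ -
  refine Subgroup.closure_induction (p := fun g hg => (⟨g, hg⟩ : twoJ2) ∈ commutator twoJ2) ?_ ?_ ?_ ?_ hg
  · intro f hf
    obtain ⟨i, rfl⟩ := exists_ref hf
    exact ref_mem_comm i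
  · exact one_mem _
  · intro a b ha hb h1 h2
    exact mul_mem h1 h2
  · intro a ha h1
    exact inv_mem h1

/-! ### Finiteness -/

/-- The minimal vectors. -/
def minV : Set V3 := {r | r ∈ icoLeech ∧ qip r r = 4}

theorem minV_finite : minV.Finite := by
  have h : minV ⊆ (fun q : Nat × Nat => lsm (toH (dec q.1)) (Rv q.2)) '' ((Sg1.toFinset ×ˢ RL.toFinset : Finset (Nat × Nat)) : Set (Nat × Nat)) := by
    rintro r ⟨hr, hn⟩
    obtain ⟨u, hu, e, he, rfl⟩ := min_class hr hn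
    refine ⟨(u, e), ?_, rfl⟩
    simp [hu, he]
  exact (Set.Finite.image _ (Finset.finite_toSet _)).subset h

/-- A linear map is determined by the images of the three vectors. -/
theorem double_eq {g : Equiv.Perm LL} (hg : IsLin g) (x : LL) :
    (g x : V3) + g x =
      lsm ((x : V3) 0) (g (mkL _ _ _ ok_E0)) + (lsm ((x : V3) 1) (g (mkL _ _ _ ok_E1)) +
        (lsm ((x : V3) 2) (g (mkL _ _ _ ok_E2)))) := by
  have h1 : icoLeech.Nonempty := ⟨_, x.2⟩
  have hz : (0 : V3) ∈ icoLeech := by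
    have := L_sub x.2 x.2
    simpa using this
  let zero : LL := ⟨0, hz⟩
  have hg0 : ((g zero : LL) : V3) = 0 := by
    have h2 := hg 1 (one_mem _) zero zero zero (by funext t; simp [zero])
    have h3 : lsm 1 ((g zero : LL) : V3) = (g zero : V3) := lsm_one _
    rw [h3] at h2
    exact left_eq_add.1 h2
  have e0 := L_comp x.2 0
  have e1 := L_comp x.2 1
  have e2 := L_comp x.2 2
  let y2 : LL := ⟨lsm ((x : V3) 2) (mkL _ _ _ ok_E2) + zero, L_add (L_lsm e2 (mkL _ _ _ ok_E2).2) hz⟩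
  let y1 : LL := ⟨lsm ((x : V3) 1) (mkL _ _ _ ok_E1) + y2, L_add (L_lsm e1 (mkL _ _ _ ok_E1).2) y2.2⟩
  let y0 : LL := ⟨lsm ((x : V3) 0) (mkL _ _ _ ok_E0) + y1, L_add (L_lsm e0 (mkL _ _ _ ok_E0).2) y1.2⟩
  have hy2 := hg _ e2 (mkL _ _ _ ok_E2) zero y2 rfl
  have hy1 := hg _ e1 (mkL _ _ _ ok_E1) y2 y1 rfl
  have hy0 := hg _ e0 (mkL _ _ _ ok_E0) y1 y0 rfl
  have hd : (y0 : V3) = lsm 1 (x : V3) + x := by
    funext t
    show (x : V3) 0 * vec3 QT QZ.zero QZ.zero t + ((x : V3) 1 * vec3 QZ.zero QT QZ.zero t +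
      ((x : V3) 2 * vec3 QZ.zero QZ.zero QT t + 0)) = 1 * (x : V3) t + (x : V3) t
    fin_cases t <;> simp [toH_QT, toH_zero, mul_two]
  have hxx := hg 1 (one_mem _) x x y0 hd
  rw [lsm_one] at hxx
  rw [← hxx, hy0, hy1, hy2, hg0, add_zero]

theorem eq_of_images {g k : Equiv.Perm LL} (hg : IsLin g) (hk : IsLin k)
    (h0 : g (mkL _ _ _ ok_E0) = k (mkL _ _ _ ok_E0)) (h1 : g (mkL _ _ _ ok_E1) = k (mkL _ _ _ ok_E1))
    (h2 : g (mkL _ _ _ ok_E2) = k (mkL _ _ _ ok_E2)) : g = k := by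
  ext1 x
  apply Subtype.ext
  have e1 := double_eq hg x
  have e2 := double_eq hk x
  rw [h0, h1, h2, ← e2] at e1
  funext t
  have e3 := congrFun e1 t
  simp only [Pi.add_apply] at e3
  have e4 : (2 : ℝ) • ((g x : LL) : V3) t = (2 : ℝ) • ((k x : LL) : V3) t := by
    rw [two_smul, two_smul]
    exact e3
  exact smul_right_injective _ (two_ne_zero) e4

instance finite_twoJ2 : Finite twoJ2 := by
  have hfin : Finite minV := minV_finite.to_subtype
  have hmem : ∀ (g : twoJ2) (v : LL), qip (v : V3) v = 4 → ((g.1 v : LL) : V3) ∈ minV := by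
    intro g v hv
    refine ⟨(g.1 v).2, ?_⟩
    rw [(twoJ2_lin_iso g.2).2]
    exact hv
  let f : twoJ2 → minV × minV × minV := fun g =>
    (⟨_, hmem g (mkL _ _ _ ok_E0) (latOK_norm ok_E0)⟩, ⟨_, hmem g (mkL _ _ _ ok_E1) (latOK_norm ok_E1)⟩,
      ⟨_, hmem g (mkL _ _ _ ok_E2) (latOK_norm ok_E2)⟩)
  refine Finite.of_injective f ?_
  intro g k h
  simp only [f, Prod.mk.injEq, Subtype.mk.injEq] at h
  apply Subtype.ext
  exact eq_of_images (twoJ2_lin_iso g.2).1 (twoJ2_lin_iso k.2).1 (Subtype.ext h.1) (Subtype.ext h.2.1) (Subtype.ext h.2.2)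

/-! ### The centre -/

/-- The negation as an element of the group. -/
noncomputable def negG : twoJ2 :=
  ⟨rE0 * rE1 * rE2, mul_mem (mul_mem (mkR_mem _ _ _ _) (mkR_mem _ _ _ _)) (mkR_mem _ _ _ _)⟩

theorem negG_apply (x : LL) : (((negG : Equiv.Perm LL) x : LL) : V3) = - (x : V3) := by
  show ((rE0 (rE1 (rE2 x)) : LL) : V3) = _
  rw [rE0_apply, rE1_apply, rE2_apply]
  funext t
  fin_cases t <;> rfl

theorem negG_center : negG ∈ Subgroup.center twoJ2 := by
  rw [Subgroup.mem_center_iff]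
  intro g
  apply Subtype.ext
  ext1 x
  apply Subtype.ext
  show ((g.1 (negG.1 x) : LL) : V3) = ((negG.1 (g.1 x) : LL) : V3)
  rw [negG_apply]
  have hz : (0 : V3) ∈ icoLeech := by
    have := L_sub x.2 x.2
    simpa using this
  let zero : LL := ⟨0, hz⟩
  have hL := (twoJ2_lin_iso g.2).1
  have hg0 : ((g.1 zero : LL) : V3) = 0 := by
    have h2 := hL 1 (one_mem _) zero zero zero (by funext t; simp [zero])
    have h3 : lsm 1 ((g.1 zero : LL) : V3) = (g.1 zero : V3) := lsm_one _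
    rw [h3] at h2
    exact left_eq_add.1 h2
  have h1 := hL (-1) (neg_mem (one_mem _)) x zero (negG.1 x) (by
    rw [negG_apply]
    funext t
    simp [zero])
  rw [h1, hg0]
  funext t
  simp

theorem negG_ne_one : negG ≠ 1 := by
  intro h
  have h1 := negG_apply (mkL _ _ _ ok_E0)
  rw [h] at h1
  have h2 := congrFun h1 0
  change toH QT = - toH QT at h2
  rw [← toH_neg] at h2
  exact absurd (toH_injective h2) (by decide +kernel)

/-- The map to the permutation group. -/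
noncomputable def sigma : twoJ2 →* H315 :=
  (MulEquiv.subgroupCongr range_phi).toMonoidHom.comp phi.rangeRestrict

theorem ker_sigma : sigma.ker = Subgroup.center twoJ2 := by
  rw [← ker_phi]
  ext g
  simp only [sigma, MonoidHom.mem_ker, MonoidHom.comp_apply]
  constructor
  · intro h
    have h1 : phi.rangeRestrict g = 1 := by
      apply (MulEquiv.subgroupCongr range_phi).injective
      simpa using h
    have := congrArg Subtype.val h1
    simpa using this
  · intro h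
    have h1 : phi.rangeRestrict g = 1 := Subtype.ext (by simpa using h)
    rw [h1]
    simp

theorem sigma_stem : IsStemExtension sigma := by
  refine ⟨?_, ?_, ?_⟩
  · exact (MulEquiv.subgroupCongr range_phi).surjective.comp phi.rangeRestrict_surjective
  · rw [ker_sigma]
  · rw [commutator_twoJ2]
    exact le_top

theorem card_center : Nat.card (Subgroup.center twoJ2) = 2 := by
  have h := Pc.card_ker_dvd_H315 sigma_stem
  rw [ker_sigma] at h
  rcases (Nat.dvd_prime Nat.prime_two).1 h with h1 | h1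
  · exfalso
    have : Subsingleton (Subgroup.center twoJ2) := (Nat.card_eq_one_iff_unique.1 h1).1
    have h2 : (⟨negG, negG_center⟩ : Subgroup.center twoJ2) = 1 := Subsingleton.elim _ _
    exact negG_ne_one (congrArg Subtype.val h2)
  · exact h1

end Cfsg.Agent.Lib.J2
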