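import Cfsg.Agent.Lib.J2.Order
import Cfsg.Agent.Lib.J2.PcP2
import Cfsg.Agent.Lib.J2.PcP3
import Cfsg.Agent.Lib.J2.PcP5
import Cfsg.Agent.Lib.Schur.Local

/-!
# Kernels of stem extensions of `J₂` have order dividing 2
-/

set_option autoImplicit false
set_option maxRecDepth 100000
set_option maxHeartbeats 0

namespace Cfsg.Agent.Lib.J2.Pc

open Cfsg Subgroup Cfsg.Agent.Lib.J2 Cfsg.Agent.Lib.PermComp.Core TabData
open Cfsg.Agent.Lib.J2.Cert315 Cfsg.Agent.Lib.Schur.Stem Cfsg.Agent.Lib.Schur.Local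
open Cfsg.Agent.Lib.Schur.PcPerm

local notation "RR" => Rep 9 511 (Equiv.refl (Fin 315))

theorem hm5 : (511 : ℕ) = 2 ^ 9 - 1 := by norm_num

theorem hid5 : ∀ i < 315, app 9 511 c_idc i = i := (main_of_checkAll (e := Equiv.refl (Fin 315)) hT315 g_ok).2.1

/-- The code of a word in the generators. -/
noncomputable def wc : List ℕ → ℕ
  | [] => c_idc
  | a :: u => force (wc u) fun q => comp 315 9 511 (nthN T315 a) q

theorem wc_rep (u : List ℕ) (hu : u.all (fun a => Nat.blt a 4) = true) : ∃ g ∈ H315, RR (wc u) g := by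
  induction u with
  | nil => exact ⟨1, one_mem _, rep_one hid5⟩
  | cons a u ih =>
    simp only [List.all_cons, Bool.and_eq_true] at hu
    obtain ⟨g, hg, hr⟩ := ih hu.2
    have ha : a < 4 := Nat.le_of_ble_eq_true hu.1
    have hmem : nthN T315 a ∈ T315 := nthN_mem _ a (by simpa [T315] using ha)
    obtain ⟨x, hx⟩ := piR_gens _ hmem
    refine ⟨piR x * g, mul_mem (H_of_rep hmem hx) hg, ?_⟩
    have : wc (a :: u) = comp 315 9 511 (nthN T315 a) (wc u) := by
      show force _ _ = _
      rw [force_eq]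
    rw [this]
    exact hx.comp hm5 hr

theorem rep_of_words {l : List ℕ} {W : List (List ℕ)} (h : l = W.map wc)
    (hW : W.all (fun u => u.all (fun a => Nat.blt a 4)) = true) : ∀ c ∈ l, ∃ g ∈ H315, RR c g := by
  subst h
  intro c hc
  obtain ⟨u, hu, rfl⟩ := List.mem_map.1 hc
  exact wc_rep u (List.all_eq_true.1 hW u hu)

theorem mem2a : PcP2.codes = PcP2.codesW.map wc := by decide +kernel
theorem mem2b : PcP2.conj = PcP2.conjW.map wc := by decide +kernel
theorem mem3a : PcP3.codes = PcP3.codesW.map wc := by decide +kernel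
theorem mem3b : PcP3.conj = PcP3.conjW.map wc := by decide +kernel
theorem mem5a : PcP5.codes = PcP5.codesW.map wc := by decide +kernel
theorem mem5b : PcP5.conj = PcP5.conjW.map wc := by decide +kernel

theorem chk2 : chkP 315 9 511 c_idc PcP2.C PcP2.codes PcP2.conj PcP2.base PcP2.ord = true := by decide +kernel
theorem chk3 : chkP 315 9 511 c_idc PcP3.C PcP3.codes PcP3.conj PcP3.base PcP3.ord = true := by decide +kernel
theorem chk5 : chkP 315 9 511 c_idc PcP5.C PcP5.codes PcP5.conj PcP5.base PcP5.ord = true := by decide +kernel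

theorem not_sq_dvd {p : ℕ} (hp : p.Prime) (h2 : p ≠ 2) (h3 : p ≠ 3) (h5 : p ≠ 5) : ¬ p ^ 2 ∣ 604800 := by
  intro h
  have hc : Nat.Coprime (p ^ 2) (2 ^ 7 * 3 ^ 3 * 5 ^ 2) := by
    apply Nat.Coprime.pow_left
    apply Nat.Coprime.mul_right
    · apply Nat.Coprime.mul_right
      · exact Nat.Coprime.pow_right _ ((Nat.coprime_primes hp Nat.prime_two).2 h2)
      · exact Nat.Coprime.pow_right _ ((Nat.coprime_primes hp Nat.prime_three).2 h3)
    · exact Nat.Coprime.pow_right _ ((Nat.coprime_primes hp Nat.prime_five).2 h5)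
  have h4 : p ^ 2 ∣ 7 := by
    have : 604800 = (2 ^ 7 * 3 ^ 3 * 5 ^ 2) * 7 := by norm_num
    rw [this] at h
    exact hc.dvd_of_dvd_mul_left h
  have h6 := Nat.le_of_dvd (by norm_num) h4
  have h7 : p ≤ 2 := by nlinarith
  have h8 := hp.two_le
  omega

/-- The main bound on the permutation group. -/
theorem card_ker_dvd_H315 {Γ : Type*} [Group Γ] [Finite Γ] {σ : Γ →* H315} (hσ : IsStemExtension σ) :
    Nat.card σ.ker ∣ 2 := by
  refine card_ker_dvd_of_sylow hσ 2 two_ne_zero ?_
  intro p _ P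
  by_cases hp2 : p = 2
  · subst hp2
    exact card_ker_dvd (p := 2) (e := Equiv.refl (Fin 315)) H315 PcP2.C PcP2.check_ok PcP2.codes PcP2.conj PcP2.base PcP2.ord chk2
      (rep_of_words mem2a (by decide +kernel)) (rep_of_words mem2b (by decide +kernel)) rfl hσ (m := 4725) (by rw [card_H315]; decide +kernel) (by norm_num) P
  by_cases hp3 : p = 3
  · subst hp3
    exact (card_ker_dvd (p := 3) (e := Equiv.refl (Fin 315)) H315 PcP3.C PcP3.check_ok PcP3.codes PcP3.conj PcP3.base PcP3.ord chk3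
      (rep_of_words mem3a (by decide +kernel)) (rep_of_words mem3b (by decide +kernel)) rfl hσ (m := 22400) (by rw [card_H315]; decide +kernel) (by norm_num) P).trans (one_dvd _)
  by_cases hp5 : p = 5
  · subst hp5
    exact (card_ker_dvd (p := 5) (e := Equiv.refl (Fin 315)) H315 PcP5.C PcP5.check_ok PcP5.codes PcP5.conj PcP5.base PcP5.ord chk5
      (rep_of_words mem5a (by decide +kernel)) (rep_of_words mem5b (by decide +kernel)) rfl hσ (m := 24192) (by rw [card_H315]; decide +kernel) (by norm_num) P).trans (one_dvd _)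
  · refine (card_ker_sylow_of_not_sq_dvd hσ ?_ P).trans (one_dvd _)
    rw [card_H315]
    exact not_sq_dvd Fact.out hp2 hp3 hp5

end Cfsg.Agent.Lib.J2.Pc
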